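import Cfsg.Statements.S5539
import Cfsg.Agent.R2.H10.Mon.Final
import Cfsg.Agent.R2.H4.Mon.MainBTop
import Cfsg.Agent.R2.H8.Mon.Ex

set_option autoImplicit false
open Cfsg

namespace Cfsg.Agent.S5539

/-- In the Monster (realised inside the presented Bimonster) there are seven 2-local subgroups (normalizers of non-trivial 2-subgroups) such that every maximal 2-local subgroup is conjugate to one of them. -/
theorem result : ∃ S : Finset (Subgroup Cfsg.Spor.Monster), S.card = 7 ∧ (∀ H ∈ S, Cfsg.IsTwoLocal H) ∧ ∀ H : Subgroup Cfsg.Spor.Monster, Cfsg.IsMaximalTwoLocal H → ∃ H₀ ∈ S, ∃ g : Cfsg.Spor.Monster, H = H₀.map (MulAut.conj g).toMonoidHom := by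
  have := Cfsg.Agent.R2.H4.Mon.MonFr.finite
  exact Cfsg.Agent.R2.H10.Mon.Final.final_of fun _ _ _ _ _ _ _ ho F hE =>
    Cfsg.Agent.R2.H4.Mon.MainBTop.mainB ho F hE fun _ S _ => Cfsg.Agent.R2.H8.Mon.Ex.exists_ark ho F S

end Cfsg.Agent.S5539
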